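import Cfsg.Agent.H305.SepJ1
import Cfsg.Agent.H413.JOneSpec
import Cfsg.Agent.H452.FprDeg
import Cfsg.Agent.H740.S8.Comm
import Cfsg.Agent.H772.S8.Tool
import Cfsg.Agent.H815.S8.J1Deg

/-!
# S4908: the FROB row of `J₁` (helper133)

`19 : 3`.  All proper subgroups `T` have index at least 56 (the minimal degree), the centralizers of involutions have
order 120, all other centralizers of elements `≠ 1` order at most 30: `Comm.bound` gives `|T| k(T) ≤ |J₁|`.
-/

set_option autoImplicit false

namespace Cfsg.Agent.H133.S8.JOneFrob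

open Subgroup Cfsg Cfsg.Agent.H704.S8
open Cfsg.Agent.H305.SepJ1 (G fin simple card local' na cn19 card_cent_two)
open Cfsg.Agent.SporRec.J1.Defs

universe u

theorem cent_pow (g : G) (n : ℕ) :
    Nat.card ↥(centralizer ({g} : Set G)) ≤ Nat.card ↥(centralizer ({g ^ n} : Set G)) := by
  have := fin
  refine Nat.le_of_dvd Nat.card_pos (card_dvd_of_le fun y hy => ?_)
  rw [mem_centralizer_singleton_iff] at hy ⊢
  exact (Commute.pow_right (show Commute y g from hy) n).eq

theorem cent_inv {g : G} (h1 : g ≠ 1) (h2 : g * g = 1) : Nat.card ↥(centralizer ({g} : Set G)) ≤ 120 := by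
  rw [card_cent_two (orderOf_eq_prime (by rw [pow_two, h2]) h1)]

theorem cent_other (g : G) (hg : g * g ≠ 1) : Nat.card ↥(centralizer ({g} : Set G)) ≤ 30 := by
  have := fin
  have := simple
  have hc : Nat.card G = 175560 := card
  have h1 := H413.JOneSpec.orderOf_mem_J1 g
  have hpow : ∀ {m r : ℕ}, orderOf g = m * r → 0 < m → orderOf (g ^ m) = r := by
    intro m r h hm
    rw [orderOf_pow' g hm.ne', h, Nat.gcd_eq_right (Dvd.intro _ rfl), Nat.mul_div_cancel_left _ hm]
  have h3 : ∀ m : ℕ, orderOf (g ^ m) = 3 → Nat.card ↥(centralizer ({g} : Set G)) ≤ 30 := fun m h =>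
    (cent_pow g m).trans (local'.cent3 _ h).le
  have h5 : ∀ m : ℕ, orderOf (g ^ m) = 5 → Nat.card ↥(centralizer ({g} : Set G)) ≤ 30 := fun m h =>
    (cent_pow g m).trans (local'.cent5 _ h).le
  simp only [Finset.mem_insert, Finset.mem_singleton] at h1
  rcases h1 with h | h | h | h | h | h | h | h | h | h
  · exact absurd (by rw [orderOf_eq_one_iff.1 h, one_mul]) hg
  · exact absurd (by rw [← pow_two, ← h, pow_orderOf_eq_one]) hg
  · exact h3 1 (by rw [pow_one]; exact h)
  · exact h5 1 (by rw [pow_one]; exact h)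
  · exact h3 2 (hpow (by rw [h]) (by norm_num))
  · rw [H417.JOneDeg.card_cent local' hc (by rw [h]; unfold H413.JOneSpec.Big; tauto), h]; norm_num
  · exact h5 2 (hpow (by rw [h]) (by norm_num))
  · rw [H417.JOneDeg.card_cent local' hc (by rw [h]; unfold H413.JOneSpec.Big; tauto), h]; norm_num
  · exact h5 3 (hpow (by rw [h]) (by norm_num))
  · rw [H417.JOneDeg.card_cent local' hc (by rw [h]; unfold H413.JOneSpec.Big; tauto), h]; norm_num

theorem index_ge {T : Subgroup G} (hT : T ≠ ⊤) : 56 ≤ T.index := by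
  have := fin
  have := simple
  have hne : ∃ x y : G, x * y ≠ y * x := by
    by_contra h
    push Not at h
    exact na h
  obtain ⟨k, ρ, hρ, h2, hk⟩ := H452.FprDeg.exists_irr hne hT
  have h3 : k ∈ charDegrees G := by
    refine H424.DegTools.mem_charDegrees.2 ⟨ρ.character, ?_, ?_⟩
    · exact ⟨k, ρ, hρ, rfl⟩
    · rw [Representation.char_one]; simp
  have h4 : charDegrees G = {1, 56, 76, 77, 120, 133, 209} :=
    H815.S8.J1Deg.charDegrees_eq (X := G) ⟨simple, card⟩
  rw [h4] at h3
  simp only [Set.mem_insert_iff, Set.mem_singleton_iff] at h3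
  omega

theorem bound {T : Subgroup G} (hT : T ≠ ⊤) : 1 * (Nat.card T * Nat.card (ConjClasses T)) ≤ Nat.card G := by
  have := fin
  have hc : Nat.card G = 175560 := card
  have hi := index_ge hT
  have hmi : Nat.card T * T.index = 175560 := by rw [Subgroup.card_mul_index, hc]
  have hT' : Nat.card T ≤ 3135 := by
    by_contra h
    push Not at h
    have h1 : 3136 * 56 ≤ Nat.card T * T.index := Nat.mul_le_mul h hi
    omega
  refine H740.S8.Comm.bound T (M := 120) (C := 30) (R := 418) (c := 1) (fun g h1 h2 => cent_inv h1 h2)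
    (fun g h1 => cent_other g h1) (by norm_num) (by rw [hc]; norm_num) ?_
  omega

/-- **FROB row of `J₁`** -/
theorem row_model (D : Set ℕ) : FrobRow 1 D G := by
  have := fin
  have f19 : Fact (Nat.Prime 19) := ⟨by norm_num⟩
  obtain ⟨z, hz⟩ := exists_prime_orderOf_dvd_card' (G := G) 19 (by rw [show Nat.card G = 175560 from card]; norm_num)
  have hP : Nat.card (zpowers z) = 19 := by rw [Nat.card_zpowers, hz]
  obtain ⟨h1, h2⟩ := cn19 hP
  refine Cfsg.Agent.H772.S8.frobRow_of (p := 19) (q := 3) (by norm_num) (by norm_num) hP ?_ ?_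
    fun T hT _ _ => bound hT
  · rw [h2]; norm_num
  · rw [h1]; norm_num

theorem row {X : Type u} [Group X] (hX : Spor.IsoJ1 X) (D : Set ℕ) : FrobRow 1 D X := by
  obtain ⟨e⟩ := hX
  exact Cfsg.Agent.H772.S8.congr e (row_model D)

theorem row' {X : Type u} [Group X] [Finite X] (hX : Cfsg.IsJ1 X) (D : Set ℕ) : FrobRow 1 D X := by
  have := hX.1
  exact row (Cfsg.Agent.S4273.isoJ1 hX.2) D

end Cfsg.Agent.H133.S8.JOneFrob
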